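import Cfsg.Agent.H798.T5Line
import Cfsg.Agent.H533.Wf.Count

/-!
# S3826, defining characteristic (helper234): the projective line, all odd primes

`q2_line` : two permutations of order `p ≥ 3` of the projective line over a finite field of characteristic `p`,
permuting the root groups, are a weak pair (`WPair`) for the group generated by the root groups: a non-identity one has
one or at most `q₀ + 1` fixed points, `q₀ ^ 3 ≤ q`.
-/

set_option autoImplicit false
set_option linter.unusedSectionVars false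

namespace Cfsg.Agent.H234.Wf

open Cfsg.Agent.FixBN Cfsg.Agent.FixBN.RankOneL2 Cfsg.Agent.H14.CycLine Cfsg.Agent.H533.T5 MulAction
open Cfsg.Agent.H798.T5Line (exists_lift)
open scoped Pointwise

variable {F : Type*} [Field F] [Finite F] {p : ℕ} [Fact p.Prime]

/-- the fixed field of an automorphism of odd prime order -/
theorem fixed_field (h2 : (2 : F) ≠ 0) (h3 : 3 ≤ p) {φ : RingAut F} (h1 : φ ≠ 1) (hφ : φ ^ p = 1) :
    3 ≤ Nat.card {x : F // φ x = x} ∧ Nat.card {x : F // φ x = x} ^ 3 ≤ Nat.card F := by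
  classical
  have hp : p.Prime := Fact.out
  have hfin : Finite (RingAut F) := Finite.of_injective (fun e : RingAut F => (e : F → F)) DFunLike.coe_injective
  let G := Subgroup.zpowers φ
  have := Fintype.ofFinite G
  have := Fintype.ofFinite F
  have hcard : Fintype.card G = p := by
    rw [← Nat.card_eq_fintype_card, Nat.card_zpowers, orderOf_eq_prime hφ h1]
  have hmem : ∀ x : F, x ∈ FixedPoints.subfield G F ↔ φ x = x := by
    intro x
    constructor
    · intro h
      exact h ⟨φ, Subgroup.mem_zpowers φ⟩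
    · rintro h ⟨g, hg⟩
      have h5 : G ≤ MulAction.stabilizer (RingAut F) x := by
        rw [Subgroup.zpowers_le]
        exact h
      exact h5 hg
  have hE : Nat.card {x : F // φ x = x} = Nat.card (FixedPoints.subfield G F) :=
    Nat.card_congr (Equiv.subtypeEquivRight fun x => (hmem x).symm)
  have hfr : Module.finrank (FixedPoints.subfield G F) F = p := by
    rw [FixedPoints.finrank_eq_card, hcard]
  have hq : Nat.card F = Nat.card (FixedPoints.subfield G F) ^ p := by
    have := Module.natCard_eq_pow_finrank (K := FixedPoints.subfield G F) (V := F)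
    rwa [hfr] at this
  have h4 : 3 ≤ Nat.card {x : F // φ x = x} := by
    have hi : Function.Injective (![⟨0, map_zero φ⟩, ⟨1, map_one φ⟩, ⟨-1, by rw [map_neg, map_one]⟩] :
        Fin 3 → {x : F // φ x = x}) := by
      have h12 : (-1 : F) ≠ 1 := by
        intro h
        apply h2
        linear_combination -h
      intro i j hij
      have h5 := congrArg Subtype.val hij
      fin_cases i <;> fin_cases j <;> simp at h5 ⊢
      · exact h12 h5.symm
      · exact h12 h5
    have := Nat.card_le_card_of_injective _ hi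
    simpa using this
  refine ⟨h4, ?_⟩
  rw [hq, ← hE]
  exact Nat.pow_le_pow_right (by omega) h3

omit [Finite F] in
/-- a permutation permuting the root groups and fixing `∞` and `0` -/
theorem exists_semi (h2 : (2 : F) ≠ 0) {f : Equiv.Perm (Option F)} (hf : f ∈ famStab (lineFam F)) (h0 : f none = none)
    (h1 : f (some 0) = some 0) : ∃ (φ : RingAut F) (a : F), a ≠ 0 ∧ ∀ z, f (some z) = some (a * φ z) := by
  obtain ⟨φ, T, hT⟩ := exists_lift_fix h2 hf h0 h1
  have e10 : pt ((1, 0) : F × F) = none := pt_zero 1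
  have e01 : pt ((0, 1) : F × F) = some 0 := by rw [pt_ne 0 one_ne_zero, zero_div]
  obtain ⟨a, ha⟩ := exists_of_pt_eq (v := ((1, 0) : F × F)) (w := T (1, 0)) (by simp)
    (map_ne_zero' T (by simp)) (by rw [← hT.act _ (by simp), e10, h0])
  obtain ⟨b, hb⟩ := exists_of_pt_eq (v := ((0, 1) : F × F)) (w := T (0, 1)) (by simp)
    (map_ne_zero' T (by simp)) (by rw [← hT.act _ (by simp), e01, h1])
  have ha0 : a ≠ 0 := by
    rintro rfl
    exact map_ne_zero' T (v := ((1, 0) : F × F)) (by simp) (by rw [ha, zero_smul])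
  have hb0 : b ≠ 0 := by
    rintro rfl
    exact map_ne_zero' T (v := ((0, 1) : F × F)) (by simp) (by rw [hb, zero_smul])
  refine ⟨φ, a / b, div_ne_zero ha0 hb0, fun z => ?_⟩
  have h3 : pt ((z, 1) : F × F) = some z := by rw [pt_ne z one_ne_zero, div_one]
  have h4 : ((z, 1) : F × F) = z • ((1, 0) : F × F) + (1 : F) • ((0, 1) : F × F) := by simp
  have h5 : T (z, 1) = (φ z * a, b) := by
    rw [h4, map_add, hT.semi, hT.semi, ha, hb]
    simp
  rw [← h3, hT.act _ (by simp), h5, pt_ne _ hb0]
  congr 1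
  ring

theorem fixedBy_conj {α : Type*} (f k : Equiv.Perm α) : Nat.card (fixedBy α (k⁻¹ * f * k)) = Nat.card (fixedBy α f) := by
  refine Nat.card_congr (Equiv.subtypeEquiv k fun a => ?_)
  change (k⁻¹ * f * k) a = a ↔ f (k a) = k a
  rw [Equiv.Perm.mul_apply, Equiv.Perm.mul_apply, Equiv.Perm.inv_eq_iff_eq]

/-- **the fixed points** -/
theorem card_fix [CharP F p] (h2 : (2 : F) ≠ 0) (h3 : 3 ≤ p) {f : Equiv.Perm (Option F)} (hf : f ∈ famStab (lineFam F))
    (ho : f ^ p = 1) (h1 : f ≠ 1) : Nat.card (fixedBy (Option F) f) ≤ 1 ∨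
      ∃ q₀, 3 ≤ q₀ ∧ q₀ ^ 3 ≤ Nat.card F ∧ Nat.card (fixedBy (Option F) f) ≤ q₀ + 1 := by
  classical
  by_cases hle : Nat.card (fixedBy (Option F) f) ≤ 1
  · exact Or.inl hle
  right
  have : Nontrivial (fixedBy (Option F) f) := by
    rw [← Finite.one_lt_card_iff_nontrivial]
    omega
  obtain ⟨y0, y1, hy⟩ := exists_pair_ne (fixedBy (Option F) f)
  obtain ⟨k, hk, hk0, hk1⟩ := exists_psl2 (F := F) (y0 := y0) (y1 := y1) fun h => hy (Subtype.ext h)
  have hg : k⁻¹ * f * k ∈ famStab (lineFam F) :=
    mul_mem (mul_mem (inv_mem (psl2_le_famStab hk)) hf) (psl2_le_famStab hk)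
  have hg0 : (k⁻¹ * f * k) none = none := by
    rw [Equiv.Perm.mul_apply, Equiv.Perm.mul_apply, Equiv.Perm.inv_eq_iff_eq, hk0]
    exact y0.2
  have hg1 : (k⁻¹ * f * k) (some 0) = some 0 := by
    rw [Equiv.Perm.mul_apply, Equiv.Perm.mul_apply, Equiv.Perm.inv_eq_iff_eq, hk1]
    exact y1.2
  have hgo : (k⁻¹ * f * k) ^ p = 1 := by
    have := conj_pow (i := p) (a := k⁻¹) (b := f)
    rw [inv_inv] at this
    rw [this, ho, mul_one, inv_mul_cancel]
  have hgn : k⁻¹ * f * k ≠ 1 := by
    intro h
    apply h1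
    calc f = k * (k⁻¹ * f * k) * k⁻¹ := by group
      _ = 1 := by rw [h, mul_one, mul_inv_cancel]
  rw [← fixedBy_conj f k]
  generalize k⁻¹ * f * k = g at *
  obtain ⟨φ, a, ha, hφ⟩ := exists_semi h2 hg hg0 hg1
  -- powers
  have hpow : ∀ n : ℕ, ∃ c : F, ∀ z, (g ^ n) (some z) = some (c * (φ ^ n) z) := by
    intro n
    induction n with
    | zero => exact ⟨1, fun z => by simp⟩
    | succ n ih =>
      obtain ⟨c, hc⟩ := ih
      refine ⟨a * φ c, fun z => ?_⟩
      rw [pow_succ', Equiv.Perm.mul_apply, hc, hφ, map_mul, pow_succ', mul_assoc]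
      rfl
  have hφp : φ ^ p = 1 := by
    obtain ⟨c, hc⟩ := hpow p
    rw [hgo] at hc
    have e1 := Option.some_injective _ (hc 1)
    rw [map_one, mul_one] at e1
    ext z
    have e2 := Option.some_injective _ (hc z)
    rw [← e1, one_mul] at e2
    exact e2.symm
  have hφ1 : φ ≠ 1 := by
    rintro rfl
    have h4 : ∀ n : ℕ, (g ^ n) (some 1) = some (a ^ n) := by
      intro n
      induction n with
      | zero => simp
      | succ n ih =>
        rw [pow_succ', Equiv.Perm.mul_apply, ih, hφ, pow_succ']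
        rfl
    have h5 := h4 p
    rw [hgo] at h5
    have h6 : a ^ p = 1 := (Option.some_injective _ h5).symm
    have h7 : a = 1 := by
      have h8 : (a - 1) ^ p = 0 := by rw [sub_pow_char, h6, one_pow, sub_self]
      exact sub_eq_zero.1 (pow_eq_zero_iff (by omega) |>.1 h8)
    apply hgn
    ext x
    rcases x with _ | z
    · rw [hg0]; rfl
    · rw [hφ, h7, one_mul]; rfl
  obtain ⟨h4, h5⟩ := fixed_field h2 h3 hφ1 hφp
  refine ⟨_, h4, h5, ?_⟩
  -- the fixed points
  by_cases hz : ∃ z₀, z₀ ≠ 0 ∧ g (some z₀) = some z₀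
  · obtain ⟨z₀, hz₀, hgz⟩ := hz
    rw [hφ] at hgz
    have e1 : a * φ z₀ = z₀ := Option.some_injective _ hgz
    have hφz : φ z₀ ≠ 0 := by
      intro h
      rw [h, mul_zero] at e1
      exact hz₀ e1.symm
    let ψ : fixedBy (Option F) g → Option {x : F // φ x = x} := fun x =>
      match x with
      | ⟨none, _⟩ => none
      | ⟨some z, hx⟩ => some ⟨z / z₀, by
          have e2 : a * φ z = z := by
            have : g (some z) = some z := hx
            rw [hφ] at this
            exact Option.some_injective _ this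
          rw [map_div₀, div_eq_div_iff hφz hz₀]
          have e3 : a * (φ z * z₀ - z * φ z₀) = 0 := by linear_combination z₀ * e2 - z * e1
          exact sub_eq_zero.1 ((mul_eq_zero.1 e3).resolve_left ha)⟩
    have hψ : Function.Injective ψ := by
      rintro ⟨x, hx⟩ ⟨y, hy⟩ hxy
      rcases x with _ | x <;> rcases y with _ | y
      · rfl
      · simp [ψ] at hxy
      · simp [ψ] at hxy
      · have h6 : x / z₀ = y / z₀ := congrArg Subtype.val (Option.some_injective _ hxy)
        have h7 : x = y := by rwa [div_left_inj' hz₀] at h6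
        subst h7
        rfl
    have := Nat.card_le_card_of_injective ψ hψ
    rwa [Finite.card_option] at this
  · push Not at hz
    let ψ : fixedBy (Option F) g → Option Unit := fun x =>
      match x with
      | ⟨none, _⟩ => none
      | ⟨some _, _⟩ => some ()
    have hψ : Function.Injective ψ := by
      rintro ⟨x, hx⟩ ⟨y, hy⟩ hxy
      rcases x with _ | x <;> rcases y with _ | y
      · rfl
      · simp [ψ] at hxy
      · simp [ψ] at hxy
      · have hx0 : x = 0 := by
          by_contra h
          exact hz x h hx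
        have hy0 : y = 0 := by
          by_contra h
          exact hz y h hy
        subst hx0 hy0
        rfl
    have := Nat.card_le_card_of_injective ψ hψ
    rw [Finite.card_option, Nat.card_unique (α := Unit)] at this
    omega

/-- **the rank one row**, own characteristic, weak form -/
theorem q2_line [CharP F p] (h3 : 3 ≤ p) {f₁ f₂ : Equiv.Perm (Option F)}
    (h₁ : f₁ ∈ famStab (lineFam F)) (h₂ : f₂ ∈ famStab (lineFam F)) (o₁ : f₁ ^ p = 1) (o₂ : f₂ ^ p = 1)
    (n₁ : f₁ ≠ 1) (n₂ : f₂ ≠ 1) : WPair p (⨆ y, lineFam F y) f₁ f₂ := by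
  classical
  have hp : p.Prime := Fact.out
  have h2 : (2 : F) ≠ 0 := by
    intro h
    have h4 : ((2 : ℕ) : F) = 0 := by exact_mod_cast h
    rw [CharP.cast_eq_zero_iff F p] at h4
    have := Nat.le_of_dvd (by norm_num) h4
    omega
  rw [iSup_lineFam]
  have hpF : p ∣ Nat.card F := by
    have := Fintype.ofFinite F
    rw [Nat.card_eq_fintype_card, ← CharP.cast_eq_zero_iff F p]
    exact FiniteField.cast_card_eq_zero F
  have hF3 : 2 ≤ Nat.card F := Finite.one_lt_card
  refine Cfsg.Agent.H533.Wf.wpair_of_fix (Ω := Option F) ?_ ?_ ?_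
  · intro a b
    refine ⟨toPt b * (toPt a)⁻¹, mul_mem (toPt_mem b) (inv_mem (toPt_mem a)), ?_⟩
    change (toPt b * (toPt a)⁻¹) a = b
    rw [Equiv.Perm.mul_apply]
    have h4 : (toPt a)⁻¹ a = none := by
      rw [Equiv.Perm.inv_eq_iff_eq, toPt_apply]
    rw [h4, toPt_apply]
  · rw [Finite.card_option]
    intro h
    have := (Nat.dvd_add_right hpF).1 h
    exact hp.one_lt.ne' (Nat.dvd_one.1 this)
  · rw [Finite.card_option]
    have mono : ∀ {x y q : ℕ}, 3 ≤ x → x ≤ y → y ^ 3 ≤ q → (x + 1) * (y + 1) < q + 1 := by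
      intro x y q hx hxy hq
      have : (x + 1) * (y + 1) ≤ (y + 1) * (y + 1) := Nat.mul_le_mul_right _ (by omega)
      nlinarith [Nat.mul_le_mul (show 3 ≤ y by omega) (le_refl (y * y)), sq_nonneg (y : ℤ)]
    rcases card_fix h2 h3 h₁ o₁ n₁ with h4 | ⟨a, ha, ha', h4⟩
    · rcases card_fix h2 h3 h₂ o₂ n₂ with h5 | ⟨b, hb, hb', h5⟩
      · have := Nat.mul_le_mul h4 h5
        omega
      · have h6 := Nat.mul_le_mul h4 h5
        have h7 : b < b ^ 3 := by
          calc b = b ^ 1 := (pow_one b).symm
            _ < b ^ 3 := Nat.pow_lt_pow_right (by omega) (by norm_num)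
        omega
    · rcases card_fix h2 h3 h₂ o₂ n₂ with h5 | ⟨b, hb, hb', h5⟩
      · have h6 := Nat.mul_le_mul h4 h5
        have h7 : a < a ^ 3 := by
          calc a = a ^ 1 := (pow_one a).symm
            _ < a ^ 3 := Nat.pow_lt_pow_right (by omega) (by norm_num)
        omega
      · have h6 := Nat.mul_le_mul h4 h5
        rcases le_total a b with hab | hab
        · exact lt_of_le_of_lt h6 (mono ha hab hb')
        · rw [mul_comm (a + 1)] at h6
          exact lt_of_le_of_lt h6 (mono hb hab ha')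

end Cfsg.Agent.H234.Wf
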