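import Cfsg.Agent.H234.Wf.Line
import Cfsg.Agent.H798.T5Untw

/-!
# S3826, defining characteristic (helper234): panels, all odd primes

* `Q2` : the weak form of `P2`; `q2_pan`;
* `wpair_pan`, `wpair_of_TP` : automorphisms acting non-trivially on panels of the same type form a weak pair;
* `wrow_of`, `wrow_chev`, `wrow_simply` : `WRow p S`, `p ≥ 3`;
* `wrow_E6`, `wrow_E7`, `wrow_E8`, `wrow_F4`.
-/

set_option autoImplicit false
set_option linter.unusedSectionVars false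
set_option maxHeartbeats 400000

namespace Cfsg.Agent.H234.Wf

open Cfsg Subgroup Cfsg.Agent.LieExceptional.BNPairCore Cfsg.Agent.Tits.Core Cfsg.Agent.Tits.Core.Bldg
  Cfsg.Agent.Tits.OfBN Cfsg.Agent.Schreier.BNSch Cfsg.Agent.Tits.OppRes Cfsg.Agent.FixBN.OfBN
open Cfsg.Agent.FixBN (Sys Split famStab mem_famStab lineFam FieldNode)
open Cfsg.Agent.FixOdd (Tw)
open Cfsg.Agent.H460.Typed Cfsg.Agent.H460.Pan Cfsg.Agent.H460.EllC Cfsg.Agent.H460.PanL
  Cfsg.Agent.H185.TypedTw Cfsg.Agent.H460.EllPan Cfsg.Agent.H460.Engine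
open Cfsg.Agent.H533.T5 Cfsg.Agent.H798.T5Pan

section Row

variable {Om Om' : Type*}

/-- two permutations of order `p` permuting the family are a weak pair -/
def Q2 (p : ℕ) (fam : Om → Subgroup (Equiv.Perm Om)) : Prop :=
  ∀ f₁ ∈ famStab fam, ∀ f₂ ∈ famStab fam, f₁ ^ p = 1 → f₂ ^ p = 1 → f₁ ≠ 1 → f₂ ≠ 1 → WPair p (⨆ y, fam y) f₁ f₂

theorem Q2.map {p : ℕ} (e : Om ≃ Om') {U : Om → Subgroup (Equiv.Perm Om)}
    {U' : Om' → Subgroup (Equiv.Perm Om')} (hU : ∀ y g, g ∈ U y ↔ e.permCongr g ∈ U' (e y)) (h : Q2 p U) :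
    Q2 p U' := by
  set F : Equiv.Perm Om ≃* Equiv.Perm Om' := e.permCongrHom with hF
  have hfa : ∀ g, F g = e.permCongr g := fun g => rfl
  have hcy : ∀ (c : Equiv.Perm Om) y, (F c) (e y) = e (c y) := fun c y => by
    show e (c (e.symm (e y))) = e (c y)
    rw [e.symm_apply_apply]
  have hst : ∀ f, F f ∈ famStab U' → f ∈ famStab U := by
    intro f hf y g
    have := hf (e y) (F g)
    rwa [hcy, ← map_mul, ← map_inv, ← map_mul, hfa, hfa, ← hU, ← hU] at this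
  have hsup : (⨆ y, U y).map F.toMonoidHom ≤ ⨆ y, U' y := by
    rw [Subgroup.map_le_iff_le_comap]
    refine iSup_le fun y g hg => ?_
    rw [Subgroup.mem_comap]
    exact Subgroup.mem_iSup_of_mem (e y) ((hU y g).1 hg)
  intro f₁' h1 f₂' h2 o1 o2 n1 n2
  obtain ⟨f₁, rfl⟩ := F.surjective f₁'
  obtain ⟨f₂, rfl⟩ := F.surjective f₂'
  have hone : ∀ f : Equiv.Perm Om, F f = 1 ↔ f = 1 := fun f => by
    rw [← map_one F, F.injective.eq_iff]
  have := h f₁ (hst _ h1) f₂ (hst _ h2) (by rwa [← map_pow, hone] at o1) (by rwa [← map_pow, hone] at o2)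
    (fun h3 => n1 ((hone _).2 h3)) (fun h3 => n2 ((hone _).2 h3))
  exact (this.of_injective F.toMonoidHom F.injective).mono hsup

end Row

variable {K : Type*} [Group K] [Finite K] {ℓ : ℕ} [Fact ℓ.Prime] {l : ℕ} {M : CoxeterMatrix (Fin l)} {Q : Fin l → ℕ}

/-- the panels over fields, in the defining characteristic -/
theorem q2_pan (E : Eng ℓ K M Q) (h3 : 3 ≤ ℓ) {i : Fin l} (h : FNode E.P E.U (E.e i : K) (Q i)) (x : K ⧸ E.P.B) :
    Q2 ℓ (E.sys.fam i x) := by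
  induction x using QuotientGroup.induction_on with
  | _ g =>
  obtain ⟨V, Nd, F, _, _, hQ, ⟨N⟩⟩ := h
  have hch : CharP F ℓ := by
    obtain ⟨r, hr⟩ := CharP.exists F
    have hrp : r.Prime := CharP.char_is_prime F r
    have h1 : ∀ (n : ℕ) (a : F), N.x (n • a) = (N.x a) ^ n := by
      intro n a
      induction n with
      | zero => rw [zero_smul, pow_zero]; exact N.x_zero
      | succ n ih => rw [succ_nsmul, N.add, ih, pow_succ]
    obtain ⟨n, hn⟩ := E.S.isP ⟨N.x 1, N.mem 1⟩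
    have h2 : (N.x 1) ^ ℓ ^ n = 1 := by simpa using congrArg Subtype.val hn
    rw [← h1] at h2
    have h3 : ((ℓ ^ n : ℕ) : F) = 0 := by
      rw [← nsmul_one]
      exact N.ne _ (by rw [h2]; exact one_mem _)
    rw [CharP.cast_eq_zero_iff F r] at h3
    have h4 := (Nat.prime_dvd_prime_iff_eq hrp Fact.out).1 (hrp.dvd_of_dvd_pow h3)
    rwa [← h4]
  exact Q2.map _ (H14.CycNode.iso_mk E.S E.e E.cs E.hcs i Nd N g fun y f => Iff.rfl)
    (fun f₁ h1 f₂ h2 => q2_line h3 h1 h2)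

variable {E : Eng ℓ K M Q}

/-- **Two automorphisms acting non-trivially on a panel of a common fixed chamber.** -/
theorem wpair_pan {x y : MulAut K} {θ η : Equiv.Perm (K ⧸ E.P.B)} (hx : Act E x θ) (hy : Act E y η)
    (ox : x ^ ℓ = 1) (oy : y ^ ℓ = 1) {c : K ⧸ E.P.B} (hxc : θ c = c) (hyc : η c = c) {i : Fin l}
    (hnx : ∃ z ∈ E.Δ.Pan i c, θ z ≠ z) (hny : ∃ z ∈ E.Δ.Pan i c, η z ≠ z) (hP : Q2 ℓ (E.sys.fam i c)) :
    WPair ℓ (MulAut.conj : K →* MulAut K).range x y := by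
  let f₁ : Equiv.Perm (E.Δ.Pan i c) := θ.subtypePerm fun z => (hx.mem_pan hxc i z).symm
  let f₂ : Equiv.Perm (E.Δ.Pan i c) := η.subtypePerm fun z => (hy.mem_pan hyc i z).symm
  have hf₁ : ∀ z, (f₁ z : K ⧸ E.P.B) = θ z := fun z => rfl
  have hf₂ : ∀ z, (f₂ z : K ⧸ E.P.B) = η z := fun z => rfl
  have o1 : f₁ ^ ℓ = 1 := by
    ext z
    rw [restr_pow hf₁, hx.pow_eq_one ox]
    rfl
  have o2 : f₂ ^ ℓ = 1 := by
    ext z
    rw [restr_pow hf₂, hy.pow_eq_one oy]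
    rfl
  have n1 : f₁ ≠ 1 := by
    obtain ⟨z, hz, h⟩ := hnx
    intro h1
    apply h
    have := hf₁ ⟨z, hz⟩
    rw [h1] at this
    exact this.symm
  have n2 : f₂ ≠ 1 := by
    obtain ⟨z, hz, h⟩ := hny
    intro h1
    apply h
    have := hf₂ ⟨z, hz⟩
    rw [h1] at this
    exact this.symm
  obtain ⟨m, hm, h⟩ := hP f₁ (hx.famStab hf₁) f₂ (hy.famStab hf₂) o1 o2 n1 n2
  obtain ⟨k, hk⟩ := (iSup_le fun z => fam_le_ActG E.sys z) hm
  have hki : ∀ z, ((m⁻¹) z : K ⧸ E.P.B) = k⁻¹ • (z : K ⧸ E.P.B) := by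
    intro z
    rw [eq_inv_smul_iff, ← hk]
    congr 1
    exact m.apply_symm_apply z
  refine ⟨MulAut.conj k, ⟨k, rfl⟩, fun hpg => h ?_⟩
  -- the elements of the closure are restrictions
  have hS : ∀ w ∈ Subgroup.closure ({f₁, m * f₂ * m⁻¹} : Set (Equiv.Perm (E.Δ.Pan i c))),
      ∃ v ∈ Subgroup.closure ({x, MulAut.conj k * y * (MulAut.conj k)⁻¹} : Set (MulAut K)),
        ∃ ω, Act E v ω ∧ ∀ z, (w z : K ⧸ E.P.B) = ω z := by
    intro w hw
    induction hw using Subgroup.closure_induction with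
    | mem w hw =>
      rcases hw with rfl | hw
      · exact ⟨x, Subgroup.subset_closure (by simp), θ, hx, hf₁⟩
      · rw [Set.mem_singleton_iff] at hw
        subst hw
        refine ⟨_, Subgroup.subset_closure (by simp), _, ((Act.inner k).mul hy).mul (Act.inner k).inv, fun z => ?_⟩
        rw [Equiv.Perm.mul_apply, Equiv.Perm.mul_apply, hk, hf₂, hki]
        rfl
    | one => exact ⟨1, one_mem _, 1, Act.one, fun z => rfl⟩
    | mul a b _ _ ha hb =>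
      obtain ⟨v, hv, ω, h1, h2⟩ := ha
      obtain ⟨v', hv', ω', h1', h2'⟩ := hb
      refine ⟨v * v', mul_mem hv hv', ω * ω', h1.mul h1', fun z => ?_⟩
      rw [Equiv.Perm.mul_apply, h2, h2']
      rfl
    | inv a _ ha =>
      obtain ⟨v, hv, ω, h1, h2⟩ := ha
      refine ⟨v⁻¹, inv_mem hv, ω⁻¹, h1.inv, fun z => ?_⟩
      rw [Equiv.Perm.eq_inv_iff_eq, ← h2]
      congr 1
      exact a.apply_symm_apply z
  rintro ⟨w, hw⟩
  obtain ⟨v, hv, ω, h1, h2⟩ := hS w hw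
  obtain ⟨n, hn⟩ := hpg ⟨v, hv⟩
  refine ⟨n, Subtype.ext ?_⟩
  have hn' : v ^ ℓ ^ n = 1 := congrArg Subtype.val hn
  have h3 := h1.pow_eq_one hn'
  change w ^ ℓ ^ n = 1
  ext z
  rw [restr_pow h2, h3]
  rfl

/-- **A common type.** -/
theorem wpair_of_TP (h3 : 3 ≤ ℓ) {i : Fin l} (hF : FNode E.P E.U (E.e i : K) (Q i)) {x y : MulAut K} (hx : TP E x i)
    (hy : TP E y i) (ox : x ^ ℓ = 1) (oy : y ^ ℓ = 1) : WPair ℓ (MulAut.conj : K →* MulAut K).range x y := by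
  obtain ⟨θ, hθ, c, hc, z, hz, hz'⟩ := hx
  obtain ⟨η, hη, d, hd, w, hw, hw'⟩ := hy
  obtain ⟨g, rfl⟩ : ∃ g : K, g • d = c := by
    obtain ⟨a, rfl⟩ := QuotientGroup.mk_surjective c
    obtain ⟨b, rfl⟩ := QuotientGroup.mk_surjective d
    exact ⟨a * b⁻¹, by rw [smul_mk, inv_mul_cancel_right]⟩
  refine WPair.conj_right (s := MulAut.conj g) ⟨g, rfl⟩ ?_
  have h1 : Act E (MulAut.conj g * y * (MulAut.conj g)⁻¹) (MulAction.toPerm g * η * (MulAction.toPerm g)⁻¹) :=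
    ((Act.inner g).mul hη).mul (Act.inner g).inv
  have h2 : ∀ a, (MulAction.toPerm g * η * (MulAction.toPerm g)⁻¹ : Equiv.Perm (K ⧸ E.P.B)) (g • a) = g • η a := by
    intro a
    rw [Equiv.Perm.mul_apply, Equiv.Perm.mul_apply]
    have : (MulAction.toPerm g)⁻¹ (g • a) = a := (MulAction.toPerm g).symm_apply_apply a
    rw [this]
    rfl
  refine wpair_pan hθ h1 ox ?_ hc (by rw [h2, hd]) ⟨z, hz, hz'⟩ ⟨g • w, ?_, ?_⟩ (q2_pan E h3 hF _)
  · rw [conj_pow, oy, mul_one, mul_inv_cancel]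
  · have h3 := (Act.inner (E := E) g).iso d w
    rw [E.Δ.Pan_eq_Res, mem_Res] at hw ⊢
    rw [← h3] at hw
    exact hw
  · rw [h2]
    intro h3
    exact hw' (MulAction.injective g h3)

end Cfsg.Agent.H234.Wf
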